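import Mathlib
import Cfsg.Agent.H33.C2.Defs

/-!
# Relations between the three coded permutations of the 4600 table vectors
(pieces C2-PERMREL and C2-NOINV of S2070, helper33; port of helper24's `H24/C3PermRel.lean`)
-/

set_option autoImplicit false
set_option maxRecDepth 100000

namespace Cfsg.Agent.H33.C2

open Cfsg Cfsg.Agent.H9 Cfsg.Agent.H33 Cfsg.Agent.H33.C3

/-- iterate on naturals (kernel-friendly) -/
def itN2 (f : ℕ → ℕ) : ℕ → ℕ → ℕ
  | 0, j => j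
  | n + 1, j => f (itN2 f n j)

theorem pow_val2 (g : Equiv.Perm (Fin 4600)) (f : ℕ → ℕ)
    (h : ∀ j : Fin 4600, (g j).val = f j.val) :
    ∀ (n : ℕ) (j : Fin 4600), ((g ^ n) j).val = itN2 f n j.val := by
  intro n
  induction n with
  | zero => intro j; rfl
  | succ n ih =>
    intro j
    rw [pow_succ', Equiv.Perm.mul_apply, h, ih]
    rfl

theorem allB_beq2 (f g : ℕ → ℕ) (n : ℕ) :
    allB (fun p => Nat.beq (f p) (g p)) n = true ↔ ∀ p < n, f p = g p := by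
  rw [allB_iff]
  constructor
  · intro h j hj
    exact Nat.eq_of_beq_eq_true (h j hj)
  · intro h j hj
    rw [h j hj]
    exact Nat.beq_refl _

theorem pX2_val (j : Fin 4600) : (pX2 j).val = g16 cX2 j.val := rfl
theorem pZ2_val (j : Fin 4600) : (pZ2 j).val = g16 cZ2 j.val := rfl
theorem pT2_val (j : Fin 4600) : (pT2 j).val = g16 cT2 j.val := rfl
theorem pXi2_val (j : Fin 4600) : (pX2⁻¹ j).val = g16 cXi2 j.val := rfl
theorem pZi2_val (j : Fin 4600) : (pZ2⁻¹ j).val = g16 cZi2 j.val := rfl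

theorem chk2_x23 : allB (fun j => Nat.beq (itN2 (g16 cX2) 23 j) j) 4600 = true := by
  decide +kernel
theorem chk2_z11 : allB (fun j => Nat.beq (itN2 (g16 cZ2) 11 j) j) 4600 = true := by
  decide +kernel
theorem chk2_t2 : allB (fun j => Nat.beq (g16 cT2 (g16 cT2 j)) j) 4600 = true := by
  decide +kernel
theorem chk2_zx : allB (fun j => Nat.beq (g16 cZ2 (g16 cX2 j))
    (itN2 (g16 cX2) 12 (g16 cZ2 j))) 4600 = true := by decide +kernel
theorem chk2_tz : allB (fun j => Nat.beq (g16 cT2 (g16 cZ2 j)) (g16 cZi2 (g16 cT2 j))) 4600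
    = true := by decide +kernel
theorem chk2_zfix : allB (fun j => (!Nat.beq (g16 cZ2 j) j) || (Nat.beq j 0 || Nat.beq j 4599))
    4600 = true := by decide +kernel
theorem chk2_x0 : Nat.beq (g16 cX2 0) 0 = false := by decide +kernel
theorem chk2_z1 : Nat.beq (g16 cZ2 1) 1 = false := by decide +kernel
theorem chk2_t0 : g16 cT2 0 = 4599 := by decide +kernel
theorem chk2_t4599 : g16 cT2 4599 = 0 := by decide +kernel

theorem pX2_pow23 : pX2 ^ 23 = 1 := by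
  apply Equiv.ext
  intro j
  apply Fin.ext
  rw [pow_val2 pX2 (g16 cX2) pX2_val]
  exact (allB_beq2 _ _ _).mp chk2_x23 j.val j.isLt

theorem pZ2_pow11 : pZ2 ^ 11 = 1 := by
  apply Equiv.ext
  intro j
  apply Fin.ext
  rw [pow_val2 pZ2 (g16 cZ2) pZ2_val]
  exact (allB_beq2 _ _ _).mp chk2_z11 j.val j.isLt

theorem pT2_sq : pT2 ^ 2 = 1 := by
  apply Equiv.ext
  intro j
  apply Fin.ext
  rw [pow_two, Equiv.Perm.mul_apply, pT2_val, pT2_val]
  exact (allB_beq2 _ _ _).mp chk2_t2 j.val j.isLt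

theorem pX2_ne_one : pX2 ≠ 1 := by
  intro e
  have h := pX2_val ⟨0, by norm_num⟩
  rw [e] at h
  have h2 : Nat.beq (g16 cX2 0) 0 = true := by
    rw [Nat.beq_eq]
    exact h.symm
  rw [chk2_x0] at h2
  exact Bool.false_ne_true h2

theorem pZ2_ne_one : pZ2 ≠ 1 := by
  intro e
  have h := pZ2_val ⟨1, by norm_num⟩
  rw [e] at h
  have h2 : Nat.beq (g16 cZ2 1) 1 = true := by
    rw [Nat.beq_eq]
    exact h.symm
  rw [chk2_z1] at h2
  exact Bool.false_ne_true h2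

theorem pZ2_conj : pZ2 * pX2 * pZ2⁻¹ = pX2 ^ 12 := by
  rw [mul_inv_eq_iff_eq_mul]
  apply Equiv.ext
  intro j
  apply Fin.ext
  rw [Equiv.Perm.mul_apply, Equiv.Perm.mul_apply, pZ2_val, pX2_val,
    pow_val2 pX2 (g16 cX2) pX2_val, pZ2_val]
  exact (allB_beq2 _ _ _).mp chk2_zx j.val j.isLt

theorem pT2_conj : pT2 * pZ2 * pT2⁻¹ = pZ2⁻¹ := by
  rw [mul_inv_eq_iff_eq_mul]
  apply Equiv.ext
  intro j
  apply Fin.ext
  rw [Equiv.Perm.mul_apply, Equiv.Perm.mul_apply, pT2_val, pZ2_val, pZi2_val, pT2_val]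
  exact (allB_beq2 _ _ _).mp chk2_tz j.val j.isLt

theorem pZ2_fix (j : Fin 4600) (h : pZ2 j = j) : j.val = 0 ∨ j.val = 4599 := by
  have h1 : g16 cZ2 j.val = j.val := by rw [← pZ2_val, h]
  have h2 := (allB_iff _ _).mp chk2_zfix j.val j.isLt
  simp only [Bool.or_eq_true, Bool.not_eq_true', Nat.beq_eq] at h2
  rcases h2 with h2 | h2 | h2
  · rw [h1, Nat.beq_refl] at h2
    exact absurd h2 (by decide)
  · exact Or.inl h2
  · exact Or.inr h2

/-- piece C2-PERMREL -/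
theorem permRel2 : StPermRel2 :=
  ⟨pX2_pow23, pX2_ne_one, pZ2_pow11, pZ2_ne_one, pZ2_conj, pT2_sq, pT2_conj, pZ2_fix,
    (pT2_val _).trans chk2_t0, (pT2_val _).trans chk2_t4599⟩

example : Cfsg.Agent.H33.C2.StPermRel2 := permRel2

/-! ### The refutation words -/

/-- the code function of `pX2 ^ m * pZ2 ^ 3 * pT2` -/
def fM (m j : ℕ) : ℕ := itN2 (g16 cX2) m (itN2 (g16 cZ2) 3 (g16 cT2 j))

/-- the code function of `pX2 * pT2 * pX2 * pT2 * pX2 * pZ2 ^ 2` -/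
def fW (j : ℕ) : ℕ :=
  g16 cX2 (g16 cT2 (g16 cX2 (g16 cT2 (g16 cX2 (itN2 (g16 cZ2) 2 j)))))

/-- the code function of `pX2⁻¹ * pT2 * pX2⁻¹ * pT2 * pX2⁻¹ * pZ2 ^ 2` -/
def fWi (j : ℕ) : ℕ :=
  g16 cXi2 (g16 cT2 (g16 cXi2 (g16 cT2 (g16 cXi2 (itN2 (g16 cZ2) 2 j)))))

theorem fM_val (m : ℕ) (j : Fin 4600) : ((pX2 ^ m * pZ2 ^ 3 * pT2) j).val = fM m j.val := by
  rw [Equiv.Perm.mul_apply, Equiv.Perm.mul_apply, pow_val2 pX2 (g16 cX2) pX2_val,
    pow_val2 pZ2 (g16 cZ2) pZ2_val, pT2_val]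
  rfl

theorem fW_val (j : Fin 4600) :
    ((pX2 * pT2 * pX2 * pT2 * pX2 * pZ2 ^ 2) j).val = fW j.val := by
  simp only [Equiv.Perm.mul_apply]
  rw [pX2_val, pT2_val, pX2_val, pT2_val, pX2_val, pow_val2 pZ2 (g16 cZ2) pZ2_val]
  rfl

theorem fWi_val (j : Fin 4600) :
    ((pX2⁻¹ * pT2 * pX2⁻¹ * pT2 * pX2⁻¹ * pZ2 ^ 2) j).val = fWi j.val := by
  simp only [Equiv.Perm.mul_apply]
  rw [pXi2_val, pT2_val, pXi2_val, pT2_val, pXi2_val, pow_val2 pZ2 (g16 cZ2) pZ2_val]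
  rfl

theorem chk2_m1 : allB (fun j => Nat.beq (itN2 (fM 1) 11 j) j) 4600 = true := by decide +kernel
theorem chk2_m : allB (fun m => Nat.blt m 2 || !(Nat.beq (itN2 (fM m) 11 0) 0)) 22 = true := by
  decide +kernel
theorem chk2_w : allB (fun j => Nat.beq (itN2 fW 9 j) j) 4600 = true := by decide +kernel
theorem chk2_wi : Nat.beq (itN2 fWi 9 0) 0 = false := by decide +kernel

/-- piece C2-NOINV -/
theorem noInv2 : StNoInv2 := by
  refine ⟨?_, ?_, ?_, ?_⟩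
  · apply Equiv.ext
    intro j
    apply Fin.ext
    have h1 := pow_val2 _ (fM 1) (fun j => by rw [← fM_val 1 j, pow_one]) 11 j
    rw [h1]
    exact (allB_beq2 _ _ _).mp chk2_m1 j.val j.isLt
  · intro m hm1 hm22 e
    have h1 := pow_val2 _ (fM m) (fM_val m) 11 ⟨0, by norm_num⟩
    rw [e] at h1
    have h2 := (allB_iff _ _).mp chk2_m m hm22
    simp only [Bool.or_eq_true, Nat.blt_eq, Bool.not_eq_true'] at h2
    rcases h2 with h2 | h2
    · omega
    · have h3 : Nat.beq (itN2 (fM m) 11 0) 0 = true := by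
        rw [Nat.beq_eq]
        exact h1.symm
      rw [h2] at h3
      exact Bool.false_ne_true h3
  · apply Equiv.ext
    intro j
    apply Fin.ext
    rw [pow_val2 _ fW fW_val]
    exact (allB_beq2 _ _ _).mp chk2_w j.val j.isLt
  · intro e
    have h1 := pow_val2 _ fWi fWi_val 9 ⟨0, by norm_num⟩
    rw [e] at h1
    have h2 : Nat.beq (itN2 fWi 9 0) 0 = true := by
      rw [Nat.beq_eq]
      exact h1.symm
    rw [chk2_wi] at h2
    exact Bool.false_ne_true h2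

example : Cfsg.Agent.H33.C2.StNoInv2 := noInv2

end Cfsg.Agent.H33.C2
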